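import Mathlib
import Cfsg.Agent.Lib.Helper70.HH.S3786Defs2

/-!
# S3786, part 2, package (C4) `LemCycS` (helper46)

`y = x ^ p ^ (k - 1)` is a power of `z` on a small abelian section `M / N` on which `y` and `z`
act fixed point freely.
-/

set_option autoImplicit false

namespace Cfsg.Agent.Lib.Helper46.HH86

open Cfsg.Agent.Lib.Helper70.HH89 Cfsg.Agent.Lib.Helper70.HH86

universe u

section Abs

set_option linter.unusedSectionVars false

variable {X : Type u} [CommGroup X] [Finite X]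

/-- the norm of a fixed point free automorphism of order dividing `p` is trivial -/
theorem cyc_norm_eq_one (β : MulAut X) (p : ℕ) (hβp : β ^ p = 1) (hβ : ∀ a, β a = a → a = 1)
    (a : X) : ∏ j ∈ Finset.range p, (β ^ j) a = 1 := by
  apply hβ
  rw [map_prod]
  have h1 : ∏ j ∈ Finset.range p, β ((β ^ j) a) = ∏ j ∈ Finset.range p, (β ^ (j + 1)) a := by
    apply Finset.prod_congr rfl
    intro j _
    rw [pow_succ']
    rfl
  rw [h1]
  have h2 := Finset.prod_range_succ (fun j => (β ^ j) a) p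
  have h3 := Finset.prod_range_succ' (fun j => (β ^ j) a) p
  rw [h2] at h3
  simp only [hβp, pow_zero, MulAut.one_apply] at h3
  exact (mul_right_cancel h3).symm

/-- a power of `ξ` fixing a nontrivial element is trivial -/
theorem cyc_stab_trivial {p : ℕ} (hp : p.Prime) (ξ : MulAut X) (k : ℕ) (hk : 1 ≤ k)
    (hξ : ξ ^ p ^ k = 1) (hη : ∀ a, (ξ ^ p ^ (k - 1)) a = a → a = 1) (b : X) (hb : b ≠ 1)
    (j : ℤ) (hj : (ξ ^ j) b = b) : ξ ^ j = 1 := by
  let St := MulAction.stabilizer (MulAut X) b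
  have hmem : ∀ g : MulAut X, g ∈ St ↔ g b = b := fun g => by
    simp [St, MulAction.mem_stabilizer_iff]
  have hbez := Int.gcd_eq_gcd_ab j ((p ^ k : ℕ) : ℤ)
  have hdP : Int.gcd j ((p ^ k : ℕ) : ℤ) ∣ p ^ k :=
    Int.natCast_dvd_natCast.mp (Int.gcd_dvd_right j _)
  obtain ⟨e, he, hde⟩ := (Nat.dvd_prime_pow hp).1 hdP
  have hξd : ξ ^ (p ^ e) ∈ St := by
    have h1 : ξ ^ ((Int.gcd j ((p ^ k : ℕ) : ℤ) : ℕ) : ℤ) =
        (ξ ^ j) ^ (Int.gcdA j ((p ^ k : ℕ) : ℤ)) *
          (ξ ^ ((p ^ k : ℕ) : ℤ)) ^ (Int.gcdB j ((p ^ k : ℕ) : ℤ)) := by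
      rw [← zpow_mul, ← zpow_mul, ← zpow_add, ← hbez]
    rw [← hde, ← zpow_natCast, h1, zpow_natCast, hξ, one_zpow, mul_one]
    exact St.zpow_mem ((hmem _).2 hj) _
  by_cases hek : e = k
  · have h2 : ((p ^ k : ℕ) : ℤ) ∣ j := by
      have := Int.gcd_dvd_left j ((p ^ k : ℕ) : ℤ)
      rwa [hde, hek] at this
    obtain ⟨t, ht⟩ := h2
    rw [ht, zpow_mul, zpow_natCast, hξ, one_zpow]
  · exfalso
    apply hb
    apply hη
    have hle : e ≤ k - 1 := by omega
    have h3 : ξ ^ p ^ (k - 1) = (ξ ^ p ^ e) ^ p ^ (k - 1 - e) := by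
      rw [← pow_mul, ← pow_add]
      congr 2
      omega
    rw [← hmem, h3]
    exact St.pow_mem hξd _

theorem cyc_pow_inv (Y : Subgroup X) (g : MulAut X) (hY : ∀ a ∈ Y, g a ∈ Y) (n : ℕ) :
    ∀ a ∈ Y, (g ^ n) a ∈ Y := by
  induction n with
  | zero => intro a ha; simpa using ha
  | succ n ih =>
    intro a ha
    rw [pow_succ']
    exact hY _ (ih a ha)

/-- `|Y| ≡ 1` modulo `p ^ k` for every `ξ`-invariant subgroup `Y` -/
theorem cyc_card_sub_one_dvd {p : ℕ} (hp : p.Prime) (ξ : MulAut X) (k : ℕ) (hk : 1 ≤ k)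
    (hξ : ξ ^ p ^ k = 1) (hη : ∀ a, (ξ ^ p ^ (k - 1)) a = a → a = 1) (hnt : ∃ b : X, b ≠ 1)
    (Y : Subgroup X) (hY : ∀ a ∈ Y, ξ a ∈ Y) : p ^ k ∣ Nat.card Y - 1 := by
  have hord : orderOf ξ = p ^ k := by
    obtain ⟨e, he, hoe⟩ := (Nat.dvd_prime_pow hp).1 (orderOf_dvd_of_pow_eq_one hξ)
    by_cases hek : e = k
    · rw [hoe, hek]
    · exfalso
      obtain ⟨b, hb⟩ := hnt
      apply hb
      apply hη
      have h1 : ξ ^ p ^ (k - 1) = 1 := by
        apply orderOf_dvd_iff_pow_eq_one.1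
        rw [hoe]
        exact pow_dvd_pow p (by omega)
      rw [h1]
      rfl
  have hYz : ∀ g ∈ Subgroup.zpowers ξ, ∀ a ∈ Y, g a ∈ Y := by
    intro g hg a ha
    obtain ⟨n, rfl⟩ := (mem_powers_iff_mem_zpowers).2 hg
    exact cyc_pow_inv Y ξ hY n a ha
  let S : SubMulAction (Subgroup.zpowers ξ) X :=
    { carrier := (Y : Set X) \ {1}
      smul_mem' := by
        rintro ⟨g, hg⟩ a ⟨ha, ha1⟩
        refine ⟨hYz g hg a ha, ?_⟩
        intro h
        apply ha1
        have h2 : g a = g 1 := by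
          rw [map_one]
          exact h
        exact g.injective h2 }
  have hfree : ∀ b : S, MulAction.stabilizer (Subgroup.zpowers ξ) b = ⊥ := by
    intro b
    rw [eq_bot_iff]
    rintro ⟨g, hg⟩ hgb
    rw [MulAction.mem_stabilizer_iff] at hgb
    have hgb' : g (b : X) = b := congrArg Subtype.val hgb
    obtain ⟨j, rfl⟩ := Subgroup.mem_zpowers_iff.1 hg
    have h1 := cyc_stab_trivial hp ξ k hk hξ hη b b.2.2 j hgb'
    rw [Subgroup.mem_bot]
    exact Subtype.ext h1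
  have e := MulAction.selfEquivOrbitsQuotientProd hfree
  have hcard : Nat.card S =
      Nat.card (Quotient (MulAction.orbitRel (Subgroup.zpowers ξ) S)) *
        Nat.card (Subgroup.zpowers ξ) := by
    rw [Nat.card_congr e, Nat.card_prod]
  have hC : Nat.card (Subgroup.zpowers ξ) = p ^ k := by rw [Nat.card_zpowers, hord]
  have hS : Nat.card S = Nat.card Y - 1 := by
    have h1 : Nat.card S = Set.ncard ((Y : Set X) \ {1}) := by
      rw [← Nat.card_coe_set_eq]
      rfl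
    have h2 : Nat.card Y = Set.ncard (Y : Set X) := by
      rw [← Nat.card_coe_set_eq]
      rfl
    rw [h1, h2, Set.ncard_sdiff_singleton_of_mem Y.one_mem]
  rw [← hS, hcard, hC]
  exact dvd_mul_left _ _

/-- the abstract form of (C4) -/
theorem cyc_abs {p : ℕ} (hp : p.Prime) (ξ ζ : MulAut X) (k : ℕ)
    (hcop : (Nat.card X).Coprime p) (hk : 1 ≤ k) (hξ : ξ ^ p ^ k = 1)
    (hη : ∀ a, (ξ ^ p ^ (k - 1)) a = a → a = 1)
    (hζ : ∀ a, ζ a = a → a = 1) (hζp : ζ ^ p = 1) (hcomm : Commute ζ ξ)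
    (hcard : Nat.card X ≤ (p ^ k - 1) ^ 2) :
    ∃ i : ℕ, ξ ^ p ^ (k - 1) = ζ ^ i := by
  by_cases hnt : ∃ b : X, b ≠ 1
  swap
  · push Not at hnt
    refine ⟨0, ?_⟩
    ext a
    rw [hnt a, map_one, map_one]
  have hηp : (ξ ^ p ^ (k - 1)) ^ p = 1 := by
    rw [← pow_mul, ← pow_succ, Nat.sub_add_cancel hk, hξ]
  have hηξ : Commute (ξ ^ p ^ (k - 1)) ξ := (Commute.refl ξ).pow_left _
  have hηζ : Commute (ξ ^ p ^ (k - 1)) ζ := (hcomm.symm).pow_left _
  have hPpos : 0 < p ^ k := pow_pos hp.pos k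
  -- the subgroups `X_i`
  have key : ∀ i : ℕ, (∀ a, (ξ ^ p ^ (k - 1)) a = (ζ ^ i) a → a = 1) ∨
      ξ ^ p ^ (k - 1) = ζ ^ i := by
    intro i
    let Y : Subgroup X :=
      MonoidHom.eqLocus ((ξ ^ p ^ (k - 1) : MulAut X) : X →* X) ((ζ ^ i : MulAut X) : X →* X)
    have hYmem : ∀ a, a ∈ Y ↔ (ξ ^ p ^ (k - 1)) a = (ζ ^ i) a := fun a => Iff.rfl
    have hYinv : ∀ a ∈ Y, ξ a ∈ Y := by
      intro a ha
      rw [hYmem] at ha ⊢
      have h1 : (ξ ^ p ^ (k - 1)) (ξ a) = ξ ((ξ ^ p ^ (k - 1)) a) := by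
        have := congrArg (fun f : MulAut X => f a) hηξ.eq
        simpa [MulAut.mul_apply] using this
      have h2 : (ζ ^ i) (ξ a) = ξ ((ζ ^ i) a) := by
        have := congrArg (fun f : MulAut X => f a) ((hcomm.pow_left i).eq)
        simpa [MulAut.mul_apply] using this
      rw [h1, h2, ha]
    have hd1 := cyc_card_sub_one_dvd hp ξ k hk hξ hη hnt Y hYinv
    have hd2 := cyc_card_sub_one_dvd hp ξ k hk hξ hη hnt ⊤ (fun a _ => Subgroup.mem_top _)
    by_cases hbot : Y = ⊥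
    · left
      intro a ha
      have h1 : a ∈ Y := (hYmem a).2 ha
      rw [hbot] at h1
      exact Subgroup.mem_bot.1 h1
    by_cases htop : Y = ⊤
    · right
      ext a
      exact (hYmem a).1 (htop ▸ Subgroup.mem_top a)
    exfalso
    have hY1 : 1 < Nat.card Y := (Subgroup.one_lt_card_iff_ne_bot Y).2 hbot
    have hYcard : p ^ k + 1 ≤ Nat.card Y := by
      obtain ⟨t, ht⟩ := hd1
      have ht0 : t ≠ 0 := by
        rintro rfl
        omega
      have h1 : p ^ k ≤ p ^ k * t := Nat.le_mul_of_pos_right _ (Nat.pos_of_ne_zero ht0)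
      omega
    have hidx : Nat.card Y * Y.index = Nat.card X := Subgroup.card_mul_index Y
    have hidx1 : 1 < Y.index := by
      have h1 : Y.index ≠ 1 := fun h => htop (Subgroup.index_eq_one.1 h)
      have h2 : Y.index ≠ 0 := Subgroup.index_ne_zero_of_finite
      omega
    have hidxP : p ^ k + 1 ≤ Y.index := by
      have hX : Nat.card (⊤ : Subgroup X) = Nat.card X := Subgroup.card_top
      rw [hX] at hd2
      obtain ⟨t, ht⟩ := hd1
      obtain ⟨s, hs⟩ := hd2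
      have hYc : Nat.card Y = p ^ k * t + 1 := by omega
      have hXc : Nat.card X = p ^ k * s + 1 := by
        have : 0 < Nat.card X := Nat.card_pos
        omega
      have h5 : (p ^ k * t + 1) * Y.index = p ^ k * s + 1 := by rw [← hYc, ← hXc, hidx]
      have h5' : (((p ^ k : ℕ) : ℤ) * t + 1) * Y.index = ((p ^ k : ℕ) : ℤ) * s + 1 := by
        exact_mod_cast h5
      have h6 : ((p ^ k : ℕ) : ℤ) ∣ (Y.index : ℤ) - 1 :=
        ⟨(s : ℤ) - t * Y.index, by linear_combination h5'⟩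
      have h7 : ((p ^ k : ℕ) : ℤ) ≤ (Y.index : ℤ) - 1 := Int.le_of_dvd (by omega) h6
      omega
    have h8 : (p ^ k + 1) * (p ^ k + 1) ≤ Nat.card X := by
      rw [← hidx]
      exact Nat.mul_le_mul hYcard hidxP
    have h9 : (p ^ k - 1) ^ 2 ≤ (p ^ k) ^ 2 := Nat.pow_le_pow_left (Nat.sub_le _ 1) 2
    nlinarith
  by_cases hex : ∃ i : ℕ, ξ ^ p ^ (k - 1) = ζ ^ i
  · exact hex
  exfalso
  push Not at hex
  have hX : ∀ i : ℕ, ∀ a, (ξ ^ p ^ (k - 1)) a = (ζ ^ i) a → a = 1 :=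
    fun i => (key i).resolve_right (hex i)
  have hβfpf : ∀ c : ℕ, ∀ a, (ξ ^ p ^ (k - 1) * ζ ^ c) a = a → a = 1 := by
    intro c a ha
    have h1 : (ζ ^ ((p - 1) * c)) ((ζ ^ c) a) = a := by
      have h0 : ζ ^ ((p - 1) * c) * ζ ^ c = 1 := by
        have hpc : (p - 1) * c + c = p * c := by
          have := hp.pos
          have h : (p - 1) * c + c = (p - 1 + 1) * c := by ring
          rw [h, Nat.sub_add_cancel this]
        rw [← pow_add, hpc, pow_mul, hζp, one_pow]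
      have := congrArg (fun f : MulAut X => f a) h0
      simpa [MulAut.mul_apply] using this
    have h2 : (ξ ^ p ^ (k - 1)) ((ζ ^ c) a) = (ζ ^ ((p - 1) * c)) ((ζ ^ c) a) := by
      rw [h1]
      exact ha
    have h3 := hX _ _ h2
    have h4 : (ζ ^ c) a = (ζ ^ c) 1 := by
      rw [map_one]
      exact h3
    exact (ζ ^ c).injective h4
  have hβp : ∀ c : ℕ, (ξ ^ p ^ (k - 1) * ζ ^ c) ^ p = 1 := by
    intro c
    rw [(hηζ.pow_right c).mul_pow, hηp, ← pow_mul, mul_comm c p, pow_mul, hζp, one_pow, one_mul]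
  have hζj : ∀ j : ℕ, 0 < j → j < p → ∀ a, (ζ ^ j) a = a → a = 1 := by
    intro j hj0 hjp a ha
    apply hζ
    have hcop' : Nat.Coprime j p := by
      rw [Nat.coprime_comm, Nat.Prime.coprime_iff_not_dvd hp]
      intro hdvd
      have := Nat.le_of_dvd hj0 hdvd
      omega
    obtain ⟨m, -, hm⟩ := Nat.exists_mul_mod_eq_one_of_coprime hcop' hp.one_lt
    have h1 : j * m = p * (j * m / p) + 1 := by
      have := Nat.div_add_mod (j * m) p
      omega
    have h2 : (ζ ^ j) ^ m = ζ := by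
      rw [← pow_mul, h1, pow_add, pow_mul, hζp, one_pow, one_mul, pow_one]
    have h3 : ∀ n : ℕ, ((ζ ^ j) ^ n) a = a := by
      intro n
      induction n with
      | zero => simp
      | succ n ih => rw [pow_succ, MulAut.mul_apply, ha, ih]
    have h4 := h3 m
    rw [h2] at h4
    exact h4
  have hall : ∀ a : X, a = 1 := by
    intro a
    have hsum : ∏ c ∈ Finset.range p, ∏ j ∈ Finset.range p,
        ((ξ ^ p ^ (k - 1) * ζ ^ c) ^ j) a = 1 := by
      apply Finset.prod_eq_one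
      intro c _
      exact cyc_norm_eq_one (ξ ^ p ^ (k - 1) * ζ ^ c) p (hβp c) (hβfpf c) a
    rw [Finset.prod_comm] at hsum
    have hj : ∀ j ∈ Finset.range p, j ≠ 0 →
        ∏ c ∈ Finset.range p, ((ξ ^ p ^ (k - 1) * ζ ^ c) ^ j) a = 1 := by
      intro j hj hj0
      have hjp : j < p := Finset.mem_range.1 hj
      have h1 : ∀ c ∈ Finset.range p, ((ξ ^ p ^ (k - 1) * ζ ^ c) ^ j) a =
          ((ξ ^ p ^ (k - 1)) ^ j) (((ζ ^ j) ^ c) a) := by
        intro c _
        rw [(hηζ.pow_right c).mul_pow, ← pow_mul ζ, ← pow_mul ζ, mul_comm c j]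
        rfl
      rw [Finset.prod_congr rfl h1, ← map_prod]
      have hn := cyc_norm_eq_one (ζ ^ j) p (by rw [← pow_mul, mul_comm, pow_mul, hζp, one_pow])
        (hζj j (Nat.pos_of_ne_zero hj0) hjp) a
      rw [hn, map_one]
    rw [Finset.prod_eq_single 0 hj
      (by intro h; exact absurd (Finset.mem_range.2 hp.pos) h)] at hsum
    simp only [pow_zero, MulAut.one_apply, Finset.prod_const, Finset.card_range] at hsum
    have h1 : orderOf a ∣ p := orderOf_dvd_of_pow_eq_one hsum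
    have h2 : orderOf a ∣ Nat.card X := orderOf_dvd_natCard a
    have h3 : orderOf a ∣ 1 := by
      have := Nat.dvd_gcd h2 h1
      rwa [Nat.Coprime.gcd_eq_one hcop] at this
    exact orderOf_eq_one_iff.1 (Nat.dvd_one.1 h3)
  obtain ⟨b, hb⟩ := hnt
  exact hb (hall b)

end Abs

section Transfer

variable {Γ : Type u} [Group Γ]

theorem cyc_conj_pow_mem (M : Subgroup Γ) (x : Γ) (h1 : ∀ a ∈ M, x * a * x⁻¹ ∈ M) (n : ℕ) :
    ∀ a ∈ M, x ^ n * a * (x ^ n)⁻¹ ∈ M := by
  induction n with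
  | zero => intro a ha; simpa using ha
  | succ n ih =>
    intro a ha
    have h2 := h1 _ (ih a ha)
    have h3 : x ^ (n + 1) * a * (x ^ (n + 1))⁻¹ = x * (x ^ n * a * (x ^ n)⁻¹) * x⁻¹ := by
      rw [pow_succ']; group
    rw [h3]
    exact h2

theorem cyc_conj_inv_mem [Finite Γ] (M : Subgroup Γ) (x : Γ) (h1 : ∀ a ∈ M, x * a * x⁻¹ ∈ M) :
    ∀ a ∈ M, x⁻¹ * a * x ∈ M := by
  intro a ha
  have hx : x⁻¹ = x ^ (orderOf x - 1) := by
    apply inv_eq_of_mul_eq_one_right
    rw [← pow_succ', Nat.sub_add_cancel (orderOf_pos x), pow_orderOf_eq_one]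
  have h2 := cyc_conj_pow_mem M x h1 (orderOf x - 1) a ha
  rw [← hx, inv_inv] at h2
  exact h2

/-- conjugation by an element normalizing `M`, as an automorphism of `M` -/
def cycConj (M : Subgroup Γ) (x : Γ) (h1 : ∀ a ∈ M, x * a * x⁻¹ ∈ M)
    (h2 : ∀ a ∈ M, x⁻¹ * a * x ∈ M) : ↥M ≃* ↥M where
  toFun a := ⟨x * a * x⁻¹, h1 a a.2⟩
  invFun a := ⟨x⁻¹ * a * x, h2 a a.2⟩
  left_inv a := Subtype.ext (by simp [mul_assoc])
  right_inv a := Subtype.ext (by simp [mul_assoc])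
  map_mul' a b := Subtype.ext (by simp [mul_assoc])

theorem cycConj_map (M N : Subgroup Γ) (x : Γ) (h1 : ∀ a ∈ M, x * a * x⁻¹ ∈ M)
    (h2 : ∀ a ∈ M, x⁻¹ * a * x ∈ M) (h3 : ∀ a ∈ N, x * a * x⁻¹ ∈ N)
    (h4 : ∀ a ∈ N, x⁻¹ * a * x ∈ N) :
    Subgroup.map (cycConj M x h1 h2 : ↥M →* ↥M) (N.subgroupOf M) = N.subgroupOf M := by
  ext a
  constructor
  · rintro ⟨b, hb, rfl⟩
    have hb' : (b : Γ) ∈ N := Subgroup.mem_subgroupOf.1 hb
    exact Subgroup.mem_subgroupOf.2 (h3 _ hb')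
  · intro ha
    have ha' : (a : Γ) ∈ N := Subgroup.mem_subgroupOf.1 ha
    refine ⟨(cycConj M x h1 h2).symm a, ?_, ?_⟩
    · exact Subgroup.mem_subgroupOf.2 (h4 _ ha')
    · exact (cycConj M x h1 h2).apply_symm_apply a

end Transfer

theorem lemCycS : LemCycS.{u} := by
  intro p hp Γ _ _ M N x z k hcop hNM hMN hxM hxN hzM hzN hk hxk hy hz hzp hzx hcard
  have hpp : p.Prime := hp.out
  have hxM' := cyc_conj_inv_mem M x hxM
  have hxN' := cyc_conj_inv_mem N x hxN
  have hzM' := cyc_conj_inv_mem M z hzM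
  have hzN' := cyc_conj_inv_mem N z hzN
  have hnorm : (N.subgroupOf M).Normal := by
    refine ⟨fun n hn g => ?_⟩
    rw [Subgroup.mem_subgroupOf] at hn ⊢
    have h1 := hMN g g.2 n n.2
    have h2 : ((g * n * g⁻¹ : ↥M) : Γ) = ((g : Γ) * n * (g : Γ)⁻¹ * (n : Γ)⁻¹) * n := by
      simp
    rw [h2]
    exact N.mul_mem h1 hn
  let cg : CommGroup (↥M ⧸ N.subgroupOf M) :=
    { (QuotientGroup.Quotient.group (N.subgroupOf M)) with
      mul_comm := by
        intro s t
        induction s using QuotientGroup.induction_on with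
        | H a =>
          induction t using QuotientGroup.induction_on with
          | H b =>
            rw [← QuotientGroup.mk_mul, ← QuotientGroup.mk_mul, QuotientGroup.eq,
              Subgroup.mem_subgroupOf]
            have h1 := hMN (b : Γ)⁻¹ (M.inv_mem b.2) (a : Γ)⁻¹ (M.inv_mem a.2)
            have h2 : (((a * b)⁻¹ * (b * a) : ↥M) : Γ) =
                (b : Γ)⁻¹ * (a : Γ)⁻¹ * (b : Γ)⁻¹⁻¹ * (a : Γ)⁻¹⁻¹ := by
              simp [mul_assoc]
            rw [h2]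
            exact h1 }
  -- equality in the quotient
  have hmk : ∀ a b : ↥M, (a : Γ) * (b : Γ)⁻¹ ∈ N →
      (QuotientGroup.mk a : ↥M ⧸ N.subgroupOf M) = QuotientGroup.mk b := by
    intro a b hab
    have h1 : (QuotientGroup.mk (a * b⁻¹) : ↥M ⧸ N.subgroupOf M) = 1 := by
      rw [QuotientGroup.eq_one_iff, Subgroup.mem_subgroupOf]
      simpa using hab
    have h2 : a = (a * b⁻¹) * b := by group
    rw [h2, QuotientGroup.mk_mul, h1, one_mul]
  have hmk' : ∀ a b : ↥M, (QuotientGroup.mk a : ↥M ⧸ N.subgroupOf M) = QuotientGroup.mk b →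
      (a : Γ) * (b : Γ)⁻¹ ∈ N := by
    intro a b hab
    have h1 : (QuotientGroup.mk (a * b⁻¹) : ↥M ⧸ N.subgroupOf M) = 1 := by
      rw [QuotientGroup.mk_mul, QuotientGroup.mk_inv, hab, mul_inv_cancel]
    rw [QuotientGroup.eq_one_iff, Subgroup.mem_subgroupOf] at h1
    simpa using h1
  let ξ : MulAut (↥M ⧸ N.subgroupOf M) :=
    QuotientGroup.congr (N.subgroupOf M) (N.subgroupOf M) (cycConj M x hxM hxM')
      (cycConj_map M N x hxM hxM' hxN hxN')
  let ζ : MulAut (↥M ⧸ N.subgroupOf M) :=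
    QuotientGroup.congr (N.subgroupOf M) (N.subgroupOf M) (cycConj M z hzM hzM')
      (cycConj_map M N z hzM hzM' hzN hzN')
  have hξmk : ∀ a : ↥M, ξ (QuotientGroup.mk a) = QuotientGroup.mk (cycConj M x hxM hxM' a) :=
    fun a => rfl
  have hζmk : ∀ a : ↥M, ζ (QuotientGroup.mk a) = QuotientGroup.mk (cycConj M z hzM hzM' a) :=
    fun a => rfl
  have hξpow : ∀ (n : ℕ) (a : ↥M), ∃ b : ↥M, (b : Γ) = x ^ n * a * (x ^ n)⁻¹ ∧
      (ξ ^ n) (QuotientGroup.mk a) = QuotientGroup.mk b := by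
    intro n
    induction n with
    | zero => intro a; exact ⟨a, by simp, rfl⟩
    | succ n ih =>
      intro a
      obtain ⟨b, hb, hb'⟩ := ih a
      refine ⟨cycConj M x hxM hxM' b, ?_, ?_⟩
      · show x * (b : Γ) * x⁻¹ = _
        rw [hb, pow_succ']; group
      · rw [pow_succ', MulAut.mul_apply, hb', hξmk]
  have hζpow : ∀ (n : ℕ) (a : ↥M), ∃ b : ↥M, (b : Γ) = z ^ n * a * (z ^ n)⁻¹ ∧
      (ζ ^ n) (QuotientGroup.mk a) = QuotientGroup.mk b := by
    intro n
    induction n with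
    | zero => intro a; exact ⟨a, by simp, rfl⟩
    | succ n ih =>
      intro a
      obtain ⟨b, hb, hb'⟩ := ih a
      refine ⟨cycConj M z hzM hzM' b, ?_, ?_⟩
      · show z * (b : Γ) * z⁻¹ = _
        rw [hb, pow_succ']; group
      · rw [pow_succ', MulAut.mul_apply, hb', hζmk]
  have hcopX : (Nat.card (↥M ⧸ N.subgroupOf M)).Coprime p :=
    Nat.Coprime.coprime_dvd_left (Subgroup.card_quotient_dvd_card _) hcop
  have hξk : ξ ^ p ^ k = 1 := by
    ext t
    induction t using QuotientGroup.induction_on with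
    | H a =>
      obtain ⟨b, hb, hb'⟩ := hξpow (p ^ k) a
      rw [hb', MulAut.one_apply]
      congr 1
      apply Subtype.ext
      rw [hb, hxk]
      simp
  have hη : ∀ t, (ξ ^ p ^ (k - 1)) t = t → t = 1 := by
    intro t
    induction t using QuotientGroup.induction_on with
    | H a =>
      intro h
      obtain ⟨b, hb, hb'⟩ := hξpow (p ^ (k - 1)) a
      rw [hb'] at h
      have h1 := hmk' _ _ h
      rw [hb] at h1
      have h2 := hy a a.2 h1
      rw [QuotientGroup.eq_one_iff, Subgroup.mem_subgroupOf]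
      exact h2
  have hζf : ∀ t, ζ t = t → t = 1 := by
    intro t
    induction t using QuotientGroup.induction_on with
    | H a =>
      intro h
      rw [hζmk] at h
      have h1 := hmk' _ _ h
      have h2 := hz a a.2 h1
      rw [QuotientGroup.eq_one_iff, Subgroup.mem_subgroupOf]
      exact h2
  have hζp : ζ ^ p = 1 := by
    ext t
    induction t using QuotientGroup.induction_on with
    | H a =>
      obtain ⟨b, hb, hb'⟩ := hζpow p a
      rw [hb', MulAut.one_apply]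
      apply hmk
      rw [hb]
      exact hzp a a.2
  have hcomm : Commute ζ ξ := by
    show ζ * ξ = ξ * ζ
    ext t
    induction t using QuotientGroup.induction_on with
    | H a =>
      rw [MulAut.mul_apply, MulAut.mul_apply, hξmk, hζmk, hζmk, hξmk]
      apply hmk
      have h1 := hzx _ (cycConj M x hxM hxM' (cycConj M z hzM hzM' a)).2
      have h2 : ((cycConj M z hzM hzM' (cycConj M x hxM hxM' a) : ↥M) : Γ) *
          ((cycConj M x hxM hxM' (cycConj M z hzM hzM' a) : ↥M) : Γ)⁻¹ =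
          (z * x * z⁻¹ * x⁻¹) * ((cycConj M x hxM hxM' (cycConj M z hzM hzM' a) : ↥M) : Γ) *
            (z * x * z⁻¹ * x⁻¹)⁻¹ *
            ((cycConj M x hxM hxM' (cycConj M z hzM hzM' a) : ↥M) : Γ)⁻¹ := by
        show z * (x * (a : Γ) * x⁻¹) * z⁻¹ * (x * (z * (a : Γ) * z⁻¹) * x⁻¹)⁻¹ =
          (z * x * z⁻¹ * x⁻¹) * (x * (z * (a : Γ) * z⁻¹) * x⁻¹) * (z * x * z⁻¹ * x⁻¹)⁻¹ *
            (x * (z * (a : Γ) * z⁻¹) * x⁻¹)⁻¹
        group
      rw [h2]
      exact h1
  have hcardX : Nat.card (↥M ⧸ N.subgroupOf M) ≤ (p ^ k - 1) ^ 2 := by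
    have h1 := Subgroup.card_eq_card_quotient_mul_card_subgroup (N.subgroupOf M)
    have h2 : Nat.card (N.subgroupOf M) = Nat.card N :=
      Nat.card_congr (Subgroup.subgroupOfEquivOfLe hNM).toEquiv
    rw [h2] at h1
    rw [h1] at hcard
    exact Nat.le_of_mul_le_mul_right hcard Nat.card_pos
  obtain ⟨i, hi⟩ := cyc_abs hpp ξ ζ k hcopX hk hξk hη hζf hζp hcomm hcardX
  refine ⟨i, fun a ha => ?_⟩
  obtain ⟨b, hb, hb'⟩ := hξpow (p ^ (k - 1)) ⟨a, ha⟩
  obtain ⟨c, hc, hc'⟩ := hζpow i ⟨a, ha⟩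
  have h1 : (QuotientGroup.mk b : ↥M ⧸ N.subgroupOf M) = QuotientGroup.mk c := by
    rw [← hb', ← hc', hi]
  have h2 := hmk' _ _ h1
  rw [hb, hc] at h2
  exact h2

end Cfsg.Agent.Lib.Helper46.HH86
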