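import Mathlib
import Cfsg.Agent.Lib.Helper70.HH.S3786Defs2
import Cfsg.Agent.Lib.Helper87.PGroupFrattini

/-!
# S3786, part 2, package (C3) `LemFpfQuot` (helper46)

Fixed point freeness of `z` on `Q / Φ(Q)` passes to `Q / N` for a `z`-invariant `N ≥ Φ(Q)`.
-/

set_option autoImplicit false

namespace Cfsg.Agent.Lib.Helper46.HH86

open Cfsg.Agent.Lib.Helper70.HH89 Cfsg.Agent.Lib.Helper70.HH86

universe u

section Fpf

variable {H : Type u} [Group H]

/-- the ordered product `g * (z g z⁻¹) * ... * (z^(k-1) g z^-(k-1))` -/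
def nuProd (z g : H) : ℕ → H
  | 0 => 1
  | k + 1 => nuProd z g k * (z ^ k * g * (z ^ k)⁻¹)

theorem nuProd_conj (z g : H) (k : ℕ) : z * nuProd z g k * z⁻¹ = g⁻¹ * nuProd z g (k + 1) := by
  induction k with
  | zero => simp [nuProd]
  | succ k ih =>
    have h1 : nuProd z g (k + 1 + 1) = nuProd z g (k + 1) * (z ^ (k + 1) * g * (z ^ (k + 1))⁻¹) :=
      rfl
    have h2 : nuProd z g (k + 1) = nuProd z g k * (z ^ k * g * (z ^ k)⁻¹) := rfl
    have h3 : z * (nuProd z g k * (z ^ k * g * (z ^ k)⁻¹)) * z⁻¹ =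
        (z * nuProd z g k * z⁻¹) * (z ^ (k + 1) * g * (z ^ (k + 1))⁻¹) := by
      rw [pow_succ']; group
    rw [h1, ← mul_assoc, ← ih, h2, h3]

theorem nuProd_mem (Q : Subgroup H) (z g : H) (hz : ∀ a ∈ Q, z * a * z⁻¹ ∈ Q) (hg : g ∈ Q)
    (k : ℕ) : nuProd z g k ∈ Q := by
  have hpow : ∀ i : ℕ, z ^ i * g * (z ^ i)⁻¹ ∈ Q := by
    intro i
    induction i with
    | zero => simpa using hg
    | succ i ih =>
      have := hz _ ih
      have h3 : z ^ (i + 1) * g * (z ^ (i + 1))⁻¹ = z * (z ^ i * g * (z ^ i)⁻¹) * z⁻¹ := by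
        rw [pow_succ']; group
      rw [h3]; exact this
  induction k with
  | zero => exact Q.one_mem
  | succ k ih => exact Q.mul_mem ih (hpow k)

end Fpf

theorem lemFpfQuot : LemFpfQuot.{u} := by
  intro p q hp hq H _ _ Q N z hqp hQ hzQ hΦN hNQ hzN hfpf hzp g hg hgN
  have hpp : p.Prime := hp.out
  have hqq : q.Prime := hq.out
  -- commutators of `Q` lie in `frat Q`
  have hcomm : ∀ a ∈ Q, ∀ b ∈ Q, a * b * a⁻¹ * b⁻¹ ∈ frat Q := by
    intro a ha b hb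
    have h := Cfsg.Agent.Lib.Helper87.comm_mem_frattini (G := ↥Q) hQ ⟨a, ha⟩ ⟨b, hb⟩
    exact ⟨_, h, rfl⟩
  have hΦQ : frat Q ≤ Q := le_trans hΦN hNQ
  -- `frat Q` and `N` are normalized by `Q`
  have hΦnorm : ∀ a ∈ Q, ∀ c ∈ frat Q, a * c * a⁻¹ ∈ frat Q := by
    intro a ha c hc
    have h1 := hcomm a ha c (hΦQ hc)
    have h2 : a * c * a⁻¹ = (a * c * a⁻¹ * c⁻¹) * c := by group
    rw [h2]; exact (frat Q).mul_mem h1 hc
  have hNnorm : ∀ a ∈ Q, ∀ c ∈ N, a * c * a⁻¹ ∈ N := by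
    intro a ha c hc
    have h1 := hΦN (hcomm a ha c (hNQ hc))
    have h2 : a * c * a⁻¹ = (a * c * a⁻¹ * c⁻¹) * c := by group
    rw [h2]; exact N.mul_mem h1 hc
  have hpowQ : ∀ i : ℕ, z ^ i * g * (z ^ i)⁻¹ ∈ Q := by
    intro i
    induction i with
    | zero => simpa using hg
    | succ i ih =>
      have := hzQ _ ih
      have h3 : z ^ (i + 1) * g * (z ^ (i + 1))⁻¹ = z * (z ^ i * g * (z ^ i)⁻¹) * z⁻¹ := by
        rw [pow_succ']; group
      rw [h3]; exact this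
  have hνQ : ∀ k, nuProd z g k ∈ Q := nuProd_mem Q z g hzQ hg
  -- Claim 1: `ν_p ∈ frat Q`
  have hν : nuProd z g p ∈ frat Q := by
    apply hfpf _ (hνQ p)
    have h1 := nuProd_conj z g p
    have h2 : nuProd z g (p + 1) = nuProd z g p * (z ^ p * g * (z ^ p)⁻¹) := rfl
    rw [h1, h2]
    set ν := nuProd z g p with hνdef
    set w := z ^ p * g * (z ^ p)⁻¹ with hwdef
    have hw : w ∈ Q := hpowQ p
    have hc1 : ν * w * ν⁻¹ * w⁻¹ ∈ frat Q := hcomm ν (hνQ p) w hw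
    have hc2 : w * g⁻¹ ∈ frat Q := hzp g hg
    have h3 : g⁻¹ * (ν * w) * ν⁻¹ = g⁻¹ * ((ν * w * ν⁻¹ * w⁻¹) * (w * g⁻¹)) * g⁻¹⁻¹ := by group
    rw [h3]
    exact hΦnorm _ (Q.inv_mem hg) _ ((frat Q).mul_mem hc1 hc2)
  -- Claim 2: `z^i g z^-i g⁻¹ ∈ N`
  have hpowN : ∀ i : ℕ, z ^ i * g * (z ^ i)⁻¹ * g⁻¹ ∈ N := by
    intro i
    induction i with
    | zero => simp
    | succ i ih =>
      have h3 : z ^ (i + 1) * g * (z ^ (i + 1))⁻¹ * g⁻¹ =
          (z * (z ^ i * g * (z ^ i)⁻¹ * g⁻¹) * z⁻¹) * (z * g * z⁻¹ * g⁻¹) := by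
        rw [pow_succ']; group
      rw [h3]; exact N.mul_mem (hzN _ ih) hgN
  -- Claim 3: `ν_k ≡ g^k` modulo `N`
  have hνN : ∀ k : ℕ, nuProd z g k * (g ^ k)⁻¹ ∈ N := by
    intro k
    induction k with
    | zero => simp [nuProd]
    | succ k ih =>
      have h2 : nuProd z g (k + 1) = nuProd z g k * (z ^ k * g * (z ^ k)⁻¹) := rfl
      have h3 : nuProd z g k * (z ^ k * g * (z ^ k)⁻¹) * (g ^ (k + 1))⁻¹ =
          (nuProd z g k * (z ^ k * g * (z ^ k)⁻¹ * g⁻¹) * (nuProd z g k)⁻¹) *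
            (nuProd z g k * (g ^ k)⁻¹) := by
        rw [pow_succ']; group
      rw [h2, h3]
      exact N.mul_mem (hNnorm _ (hνQ k) _ (hpowN k)) ih
  have hgp : g ^ p ∈ N := by
    have h1 := hνN p
    have h2 : g ^ p = (nuProd z g p * (g ^ p)⁻¹)⁻¹ * nuProd z g p := by group
    rw [h2]; exact N.mul_mem (N.inv_mem h1) (hΦN hν)
  -- `g` has `q`-power order
  obtain ⟨m, hm⟩ := hQ ⟨g, hg⟩
  have hm' : g ^ q ^ m = 1 := by
    have := congrArg Subtype.val hm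
    simpa using this
  have hcop : Nat.Coprime p (q ^ m) :=
    Nat.Coprime.pow_right m ((Nat.coprime_primes hpp hqq).2 (Ne.symm hqp))
  by_cases hm1 : q ^ m = 1
  · rw [hm1, pow_one] at hm'
    rw [hm']; exact N.one_mem
  · have hlt : 1 < q ^ m := by
      have : 0 < q ^ m := pow_pos hqq.pos m
      omega
    obtain ⟨j, -, hj⟩ := Nat.exists_mul_mod_eq_one_of_coprime hcop hlt
    have h1 : p * j = q ^ m * (p * j / q ^ m) + 1 := by
      have := Nat.div_add_mod (p * j) (q ^ m)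
      omega
    have h2 : g = (g ^ p) ^ j := by
      rw [← pow_mul, h1, pow_add, pow_mul, hm', one_pow, one_mul, pow_one]
    rw [h2]; exact N.pow_mem hgp j

end Cfsg.Agent.Lib.Helper46.HH86
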